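import Mathlib
import Cfsg.Agent.Base
import Cfsg.Agent.Lib.Core.Hall

/-! # Generation of minimal non-`p`-soluble groups by three elements (helper57) -/

set_option autoImplicit false

namespace H57.Pow
open Subgroup H3
open scoped Pointwise

universe u
variable {G : Type u} [Group G]

/-- the subgroup generated by the `π`-elements of `A` -/
def res (π : Set ℕ) (A : Subgroup G) : Subgroup G := closure {x | x ∈ A ∧ PiNum π (orderOf x)}

/-- alternating sets of primes -/
def alt (p : ℕ) : ℕ → Set ℕ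
  | 0 => {p}
  | n + 1 => (alt p n)ᶜ

/-- the alternating residual series -/
def ser (p : ℕ) : ℕ → Subgroup G → Subgroup G
  | 0, A => A
  | n + 1, A => res (alt p n) (ser p n A)

theorem alt_cases (p n : ℕ) : alt p n = {p} ∨ alt p n = {p}ᶜ := by
  induction n with
  | zero => exact Or.inl rfl
  | succ n ih => rcases ih with h | h <;> simp [alt, h]

theorem res_le (π : Set ℕ) (A : Subgroup G) : res π A ≤ A := (closure_le _).mpr fun _ h => h.1

theorem res_mono (π : Set ℕ) {A B : Subgroup G} (h : A ≤ B) : res π A ≤ res π B :=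
  closure_mono fun _ hx => ⟨h hx.1, hx.2⟩

theorem ser_le (p n : ℕ) (A : Subgroup G) : ser p n A ≤ A := by
  induction n with
  | zero => exact le_rfl
  | succ n ih => exact (res_le _ _).trans ih

theorem ser_anti (p : ℕ) (A : Subgroup G) {m n : ℕ} (h : m ≤ n) : ser p n A ≤ ser p m A := by
  induction h with
  | refl => exact le_rfl
  | step _ ih => exact (res_le _ _).trans ih

theorem exists_part (π : Set ℕ) {n : ℕ} (hn : n ≠ 0) :
    ∃ a b, PiNum π a ∧ PiNum πᶜ b ∧ n = a * b := by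
  induction n using Nat.recOnPrimeCoprime with
  | zero => exact absurd rfl hn
  | prime_pow q k hq =>
    by_cases h : q ∈ π
    · exact ⟨_, 1, piNum_prime_pow hq h k, piNum_one _, (mul_one _).symm⟩
    · exact ⟨1, _, piNum_one _, piNum_prime_pow hq h k, (one_mul _).symm⟩
  | coprime a b ha hb _ iha ihb =>
    obtain ⟨a1, a2, h1, h2, rfl⟩ := iha (by omega)
    obtain ⟨b1, b2, h3, h4, rfl⟩ := ihb (by omega)
    exact ⟨_, _, h1.mul h3, h2.mul h4, by ring⟩

theorem res_map [Finite G] {G' : Type*} [Group G'] (f : G →* G') (π : Set ℕ) (A : Subgroup G) :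
    (res π A).map f = res π (A.map f) := by
  unfold res
  rw [MonoidHom.map_closure]
  congr 1
  ext y
  constructor
  · rintro ⟨x, ⟨h1, h2⟩, rfl⟩
    exact ⟨mem_map_of_mem f h1, h2.of_dvd (orderOf_map_dvd f x)⟩
  · rintro ⟨⟨x, h1, rfl⟩, h2⟩
    obtain ⟨a, b, ha, hb, e⟩ := exists_part π (orderOf_pos x).ne'
    obtain ⟨m, hm⟩ := exists_pow_eq_self_of_coprime (x := f x) (n := b) (hb.coprime' h2)
    refine ⟨(x ^ b) ^ m, ⟨pow_mem (pow_mem h1 b) m, ha.of_dvd ((orderOf_pow_dvd m).trans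
      (orderOf_dvd_of_pow_eq_one ?_))⟩, by rw [map_pow, map_pow, hm]⟩
    rw [← pow_mul, mul_comm, ← e, pow_orderOf_eq_one]

theorem ser_map [Finite G] {G' : Type*} [Group G'] (f : G →* G') (p n : ℕ) (A : Subgroup G) :
    (ser p n A).map f = ser p n (A.map f) := by
  induction n with
  | zero => rfl
  | succ n ih => rw [ser, ser, res_map, ih]

theorem le_normalizer_ser [Finite G] (p n : ℕ) (A : Subgroup G) :
    A ≤ normalizer (ser p n A : Set G) := fun g hg => by
  rw [← conj_smul_eq_self_iff, conj_smul_eq_map, ser_map, ← conj_smul_eq_map,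
    conj_smul_eq_self_iff.mpr (le_normalizer hg)]

theorem mem_of_relIndex [Finite G] {π : Set ℕ} {M L : Subgroup G} (hL : L ≤ normalizer (M : Set G))
    (h : PiNum πᶜ (M.relIndex L)) {x : G} (hx : x ∈ L) (ho : PiNum π (orderOf x)) : x ∈ M := by
  have := normal_subgroupOf_of_le_normalizer hL
  have h1 : (⟨x, hx⟩ : L) ^ M.relIndex L ∈ M.subgroupOf L := pow_index_mem _ _
  obtain ⟨m, hm⟩ := exists_pow_eq_self_of_coprime (x := x) (h.coprime' ho)
  exact hm ▸ pow_mem (mem_subgroupOf.mp h1) m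

theorem exists_ser_eq_bot [Finite G] {p : ℕ} (h : IsPiSeparable {p} G) :
    ∃ n, ser p n (⊤ : Subgroup G) = ⊥ := by
  suffices h1 : ∃ n, ser p n (⊤ : Subgroup G) ≤ ⊥ from h1.imp fun _ => le_bot_iff.mp
  refine h.induction (P := fun M => ∃ n, ser p n ⊤ ≤ M) ⟨0, le_rfl⟩ ?_ ⊥ inferInstance
  rintro M L hM _ _ hi ⟨n, hn⟩
  have key : ∀ σ, PiNum σᶜ (M.relIndex L) → ∀ K ≤ L, res σ K ≤ M := fun σ h K hK =>
    (closure_le _).mpr fun x hx => mem_of_relIndex (le_normalizer_of_normal) h (hK hx.1) hx.2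
  have h1 : PiNum (alt p n)ᶜ (M.relIndex L) ∨ PiNum (alt p (n + 1))ᶜ (M.relIndex L) := by
    rcases alt_cases p n with e | e <;> simp only [alt, e, compl_compl] <;> tauto
  rcases h1 with h1 | h1
  · exact ⟨n + 1, key _ h1 _ hn⟩
  · exact ⟨n + 2, key _ h1 _ ((res_le _ _).trans hn)⟩

theorem piNum_orderOf_mul [Finite G] {σ : Set ℕ} {N : Subgroup G} [N.Normal]
    (hN : PiNum σ (Nat.card N)) {w g : G} (hw : w ∈ N) (hg : PiNum σ (orderOf g)) :
    PiNum σ (orderOf (w * g)) := by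
  have h1 : (w * g) ^ orderOf g ∈ N := by
    rw [← QuotientGroup.eq_one_iff, QuotientGroup.mk_pow, QuotientGroup.mk_mul,
      (QuotientGroup.eq_one_iff w).mpr hw, one_mul, ← QuotientGroup.mk_pow, pow_orderOf_eq_one,
      QuotientGroup.mk_one]
  refine (hg.mul hN).of_dvd (orderOf_dvd_of_pow_eq_one ?_)
  rw [pow_mul]
  exact congrArg Subtype.val (pow_card_eq_one' (x := (⟨_, h1⟩ : N)))

theorem centralizes [Finite G] {p n : ℕ} [Fact p.Prime] {σ : Set ℕ} (hσ : σ = {p} ∨ σ = {p}ᶜ)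
    (h : ∀ a b : G, PiNum σ (Nat.card (ser p n (closure {a, b})))) {L : Subgroup G} [L.Normal]
    (hL : PiNum σᶜ (Nat.card L)) (a b : G) : ser p n (closure {a, b}) ≤ centralizer (L : Set G) := by
  set P := ser p n (closure {a, b}) with hP
  set C := L ⊓ centralizer (P : Set G) with hC
  have hsol : ∀ K : Subgroup G, PiNum {p} (Nat.card K) → Group.IsSolvable K := fun K hK => by
    have := (IsPGroup.iff_card.mpr
      ((piNum_singleton_iff Fact.out Nat.card_pos.ne').mp hK)).isNilpotent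
    infer_instance
  have h1 : ∀ l₁ ∈ L, ∀ l₂ ∈ L, ∃ e ∈ L, MulAut.conj e • ser p n (closure {a * l₁, b * l₂}) = P := by
    intro l₁ h₁ l₂ h₂
    have e1 : (ser p n (closure {a * l₁, b * l₂})).map (QuotientGroup.mk' L) =
        P.map (QuotientGroup.mk' L) := by
      rw [hP, ser_map, ser_map, MonoidHom.map_closure, MonoidHom.map_closure, Set.image_pair,
        Set.image_pair, map_mul, map_mul, QuotientGroup.mk'_apply L l₁, QuotientGroup.mk'_apply L l₂,
        (QuotientGroup.eq_one_iff _).mpr h₁, (QuotientGroup.eq_one_iff _).mpr h₂, mul_one, mul_one]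
    have e2 : ∀ K : Subgroup G, PiNum σ (Nat.card K) →
        Nat.card (K.map (QuotientGroup.mk' L)) = Nat.card K := fun K hK => by
      rw [card_map_mk'_eq_relIndex, ← relIndex_mul_card_inf L K,
        (disjoint_of_coprime_natCard (hL.coprime' hK)).eq_bot, card_bot, mul_one]
    refine exists_conj_eq_of_coprime le_normalizer_of_normal ?_ ?_ (hL.coprime' (h a b)) ?_
    · have := congrArg (comap (QuotientGroup.mk' L)) e1
      rw [comap_map_eq, comap_map_eq, QuotientGroup.ker_mk', sup_comm P] at this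
      exact this ▸ le_sup_left
    · rw [← e2 _ (h _ _), e1, e2 _ (h a b)]
    · rcases hσ with rfl | rfl
      · exact Or.inr (hsol _ (h _ _))
      · exact Or.inl (hsol _ (piNum_compl_compl.mp hL))
  have h2 : ∀ l ∈ L, l ∈ normalizer (P : Set G) → l ∈ C := fun l hl hn =>
    mem_inf.mpr ⟨hl, mem_centralizer_iff.mpr fun x hx => by
      have : l * x * l⁻¹ * x⁻¹ ∈ L ⊓ P := mem_inf.mpr ⟨by
        rw [mul_assoc, mul_assoc, ← mul_assoc x]
        exact mul_mem hl (Normal.conj_mem inferInstance _ (inv_mem hl) x),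
        mul_mem (conj_mem_of_mem_normalizer hn hx) (inv_mem hx)⟩
      rw [(disjoint_of_coprime_natCard (hL.coprime' (h a b))).eq_bot, mem_bot, mul_inv_eq_one,
        mul_inv_eq_iff_eq_mul] at this
      exact this.symm⟩
  have h3 : ∀ x ∈ normalizer (P : Set G), ∀ l ∈ L, ∀ e ∈ L, e * (x * l) * e⁻¹ ∈ normalizer (P : Set G) →
      ∀ c ∈ C, ∃ d ∈ C, l = x⁻¹ * (e⁻¹ * c) * x * d * (e⁻¹ * c)⁻¹ := by
    intro x hx l hl e he hn c hc
    have hc' : c ∈ normalizer (P : Set G) := centralizer_le_normalizer _ hc.2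
    refine ⟨x⁻¹ * (c⁻¹ * (e * (x * l) * e⁻¹) * c), h2 _ ?_ ?_, by group⟩
    · have : x⁻¹ * (c⁻¹ * (e * (x * l) * e⁻¹) * c) = x⁻¹ * (c⁻¹ * e) * x⁻¹⁻¹ * (l * e⁻¹ * c) := by
        group
      rw [this]
      exact mul_mem (Normal.conj_mem inferInstance _ (mul_mem (inv_mem hc.1) he) _)
        (mul_mem (mul_mem hl (inv_mem he)) hc.1)
    · exact mul_mem (inv_mem hx) (mul_mem (mul_mem (inv_mem hc') hn) hc')
  have hm : ∀ (x : G) (e : L) (d : C), x⁻¹ * e * x * d * (e : G)⁻¹ ∈ L := fun x e d =>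
    mul_mem (mul_mem (Normal.conj_mem' inferInstance _ e.2 x) d.2.1) (inv_mem e.2)
  let f : (L ⧸ C.subgroupOf L) × C × C → L × L := fun t =>
    (⟨_, hm a t.1.out t.2.1⟩, ⟨_, hm b t.1.out t.2.2⟩)
  have hf : Function.Surjective f := by
    rintro ⟨l₁, l₂⟩
    obtain ⟨e, he, h4⟩ := h1 _ l₁.2 _ l₂.2
    obtain ⟨c, hc⟩ := QuotientGroup.mk_out_eq_mul (C.subgroupOf L) (⟨e⁻¹, inv_mem he⟩ : L)
    have h5 : ∀ y ∈ closure {a * l₁, b * l₂}, e * y * e⁻¹ ∈ normalizer (P : Set G) := fun y hy => by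
      rw [← conj_smul_eq_self_iff, ← h4, conj_smul_conj_smul, inv_mul_cancel_right,
        ← conj_smul_conj_smul, conj_smul_eq_self_iff.mpr (le_normalizer_ser p n _ hy)]
    obtain ⟨d₁, hd₁, e₁⟩ := h3 a (le_normalizer_ser p n _ (subset_closure (by simp))) _ l₁.2 e he
      (h5 _ (subset_closure (by simp))) _ (mem_subgroupOf.mp c.2)
    obtain ⟨d₂, hd₂, e₂⟩ := h3 b (le_normalizer_ser p n _ (subset_closure (by simp))) _ l₂.2 e he
      (h5 _ (subset_closure (by simp))) _ (mem_subgroupOf.mp c.2)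
    refine ⟨(((⟨e⁻¹, inv_mem he⟩ : L) : L ⧸ C.subgroupOf L), ⟨d₁, hd₁⟩, ⟨d₂, hd₂⟩), ?_⟩
    simp only [f, hc]
    exact Prod.ext (Subtype.ext e₁.symm) (Subtype.ext e₂.symm)
  have h6 := Nat.card_le_card_of_surjective f hf
  rw [Nat.card_prod, Nat.card_prod, Nat.card_prod, ← mul_assoc] at h6
  have h7 : Nat.card (L ⧸ C.subgroupOf L) * Nat.card C = Nat.card L :=
    relIndex_mul_card (inf_le_left : C ≤ L)
  rw [h7] at h6
  have h8 := eq_of_le_of_card_ge (inf_le_left : C ≤ L) (Nat.le_of_mul_le_mul_left h6 Nat.card_pos)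
  exact le_centralizer_iff.mp (h8.ge.trans inf_le_right)

theorem exists_normal {p n : ℕ} [Fact p.Prime] {σ : Set ℕ} (hσ : σ = {p} ∨ σ = {p}ᶜ) (m : ℕ) :
    ∀ (G : Type u) [Group G] [Finite G], Nat.card G = m → IsPiSeparable {p} G →
      (∀ a b : G, PiNum σ (Nat.card (ser p n (closure {a, b})))) →
      ∃ N : Subgroup G, N.Normal ∧ PiNum σ (Nat.card N) ∧ ∀ a b : G, ser p n (closure {a, b}) ≤ N := by
  induction m using Nat.strong_induction_on with
  | _ m ih =>
  intro G _ _ hm hs h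
  rcases subsingleton_or_nontrivial G with hG | hG
  · exact ⟨⊥, inferInstance, by simpa using piNum_one σ, fun a b x _ => Subsingleton.elim _ _⟩
  obtain ⟨L, hL, hne, hπ⟩ := hs.exists_normal
  have hq : ∀ a b : G, (ser p n (closure {a, b})).map (QuotientGroup.mk' L) =
      ser p n (closure {(a : G ⧸ L), (b : G ⧸ L)}) := fun a b => by
    rw [ser_map, MonoidHom.map_closure, Set.image_pair]; rfl
  obtain ⟨N, hN, h1, h2⟩ := ih _ (hm ▸ (card_eq_card_quotient_mul_card_subgroup L).symm ▸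
    lt_mul_of_one_lt_right Nat.card_pos (one_lt_card_iff_ne_bot L |>.mpr hne)) (G ⧸ L) rfl
    (hs.quotient L) (fun a b => by
      induction a using QuotientGroup.induction_on
      induction b using QuotientGroup.induction_on
      rw [← hq]
      exact (h _ _).of_dvd (card_map_dvd _ _))
  set M := N.comap (QuotientGroup.mk' L)
  have hLM : L ≤ M := fun x hx => by
    simp [M, (QuotientGroup.eq_one_iff x).mpr hx]
  have h3 : ∀ a b : G, ser p n (closure {a, b}) ≤ M := fun a b =>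
    map_le_iff_le_comap.mp ((hq a b).trans_le (h2 _ _))
  have h4 : PiNum σ (L.relIndex M) := by rwa [relIndex_comap_mk']
  have h5 : PiNum σ (Nat.card L) ∨ PiNum σᶜ (Nat.card L) := by
    rcases hσ with rfl | rfl
    · exact hπ
    · rw [compl_compl]; exact hπ.symm
  rcases h5 with h5 | h5
  · exact ⟨M, inferInstance, relIndex_mul_card hLM ▸ h4.mul h5, h3⟩
  set D := M ⊓ centralizer (L : Set G)
  have h6 : PiNum σ ((L ⊓ D).relIndex D) := by
    rw [inf_relIndex_right, ← card_map_mk'_eq_relIndex]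
    rw [← card_map_mk'_eq_relIndex] at h4
    exact h4.of_dvd (card_dvd_of_le (map_mono inf_le_left))
  have h7 : PiNum σᶜ (Nat.card (L ⊓ D : Subgroup G)) := h5.of_dvd (card_dvd_of_le inf_le_left)
  obtain ⟨K, hKD, h8, -, h9⟩ := exists_complement_in (inf_le_right : L ⊓ D ≤ D)
    le_normalizer_of_normal (h7.coprime' h6)
  have hK : PiNum σ (Nat.card K) := h9 ▸ h6
  have h10 : ∀ x ∈ D, PiNum σ (orderOf x) → x ∈ K := fun x hx ho => by
    refine mem_of_relIndex (L := D) (h8.ge.trans (sup_le (fun y hy => centralizer_le_normalizer _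
      (mem_centralizer_iff.mpr fun k hk => ((hKD hk).2 y hy.1).symm)) le_normalizer)) ?_ hx ho
    rw [← h8, relIndex_sup_right_of_le_normalizer le_normalizer_of_normal]
    exact h7.of_dvd (relIndex_dvd_card _ _)
  refine ⟨K, ⟨fun k hk g => h10 _ (Normal.conj_mem inferInstance _ (hKD hk) g) ?_⟩, hK,
    fun a b x hx => h10 x ⟨h3 a b hx, centralizes hσ h h5 a b hx⟩
      ((h a b).of_dvd (orderOf_dvd_natCard _ hx))⟩
  rw [← MulAut.conj_apply, MulEquiv.orderOf_eq]
  exact hK.of_dvd (orderOf_dvd_natCard _ hk)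

theorem orderOf_conj' (g x : G) : orderOf (g * x * g⁻¹) = orderOf x := by
  rw [← MulAut.conj_apply, MulEquiv.orderOf_eq]

/-- the elements whose products with `σ`-elements are `σ`-elements -/
def rad (σ : Set ℕ) (G : Type u) [Group G] : Subgroup G where
  carrier := {w | ∀ g, PiNum σ (orderOf g) → PiNum σ (orderOf (w * g))}
  one_mem' := fun g hg => by rwa [one_mul]
  mul_mem' := fun ha hb g hg => by rw [mul_assoc]; exact ha _ (hb g hg)
  inv_mem' := fun {w} hw g hg => by
    have := hw g⁻¹ (by rwa [orderOf_inv])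
    rwa [← orderOf_inv, ← orderOf_conj' w⁻¹, (by group : w⁻¹ * (w * g⁻¹)⁻¹ * w⁻¹⁻¹ = w⁻¹ * g)] at this

instance (σ : Set ℕ) : (rad σ G).Normal := ⟨fun w hw x g hg => by
  have := hw (x⁻¹ * g * x⁻¹⁻¹) (by rwa [orderOf_conj'])
  rwa [← orderOf_conj' x, (by group : x * (w * (x⁻¹ * g * x⁻¹⁻¹)) * x⁻¹ = x * w * x⁻¹ * g)] at this⟩

theorem main [Finite G] [IsSimpleGroup G] (hna : ¬ IsMulCommutative G) {p : ℕ} [hp : Fact p.Prime]
    (hdvd : p ∣ Nat.card G) (h : ∀ a b c : G, IsPiSeparable {p} (closure ({a, b, c} : Set G))) :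
    False := by
  classical
  have hsub : ∀ (K : Subgroup G) (n : ℕ) (a b : K), (ser p n (closure {a, b})).map K.subtype =
      ser p n (closure {(a : G), (b : G)}) := fun K n a b => by
    rw [ser_map, MonoidHom.map_closure, Set.image_pair]; rfl
  have h1 : ∃ n, ∀ a b : G, ser p n (closure {a, b}) = ⊥ := by
    have h2 : ∀ t : G × G, ∃ n, ser p n (closure {t.1, t.2}) = ⊥ := fun t => by
      obtain ⟨n, hn⟩ := exists_ser_eq_bot ((h t.1 t.2 t.2).of_le
        (closure_mono (by simp) : closure {t.1, t.2} ≤ _))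
      have := congrArg (map (closure {t.1, t.2}).subtype) hn
      rw [ser_map, ← MonoidHom.range_eq_map, range_subtype, Subgroup.map_bot] at this
      exact ⟨n, this⟩
    choose f hf using h2
    obtain ⟨m, hm⟩ := (Set.finite_range f).bddAbove
    exact ⟨m, fun a b => le_bot_iff.mp ((ser_anti p _ (hm ⟨(a, b), rfl⟩)).trans_eq (hf (a, b)))⟩
  obtain ⟨n, hn⟩ : ∃ n, Nat.find h1 = n + 1 := Nat.exists_eq_succ_of_ne_zero fun e => by
    obtain ⟨x, hx⟩ := exists_ne (1 : G)
    have := Nat.find_spec h1 x x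
    rw [e] at this
    exact hx (mem_bot.mp (this ▸ subset_closure (by simp) : x ∈ (⊥ : Subgroup G)))
  have h2 := Nat.find_spec h1
  have h3 := Nat.find_min h1 (m := n) (by omega)
  rw [hn] at h2
  push Not at h3
  obtain ⟨a, b, hab⟩ := h3
  obtain ⟨⟨w, hw⟩, hw1⟩ := ne_bot_iff_exists_ne_one.mp hab
  have h4 : ∀ a b : G, PiNum (alt p (n + 1)) (Nat.card (ser p n (closure {a, b}))) := by
    intro a b q hq hd h5
    have := Fact.mk hq
    obtain ⟨x, hx⟩ := exists_prime_orderOf_dvd_card' q hd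
    have h6 : (x : G) ∈ ser p (n + 1) (closure {a, b}) :=
      subset_closure ⟨x.2, by rw [orderOf_coe, hx]; exact (piNum_prime hq).mpr h5⟩
    rw [h2, mem_bot] at h6
    rw [← orderOf_coe, h6, orderOf_one] at hx
    exact hq.one_lt.ne hx
  have h5 : w ∈ rad (alt p (n + 1)) G := fun g hg => by
    set K := closure ({a, b, g} : Set G)
    obtain ⟨N, hN, h6, h7⟩ := exists_normal (n := n) (alt_cases p (n + 1)) _ K rfl (h a b g)
      fun x y => by rw [← card_map_subtype, hsub]; exact h4 _ _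
    have ha : a ∈ K := subset_closure (by simp)
    have hb : b ∈ K := subset_closure (by simp)
    have hg' : g ∈ K := subset_closure (by simp)
    rw [← hsub K n ⟨a, ha⟩ ⟨b, hb⟩] at hw
    obtain ⟨v, hv, rfl⟩ := hw
    have := piNum_orderOf_mul h6 (h7 _ _ hv) (g := ⟨g, hg'⟩) (by rwa [← orderOf_coe])
    rwa [← orderOf_coe] at this
  have h6 : ∀ x : G, PiNum (alt p (n + 1)) (orderOf x) := fun x => by
    have h7 := (IsSimpleGroup.eq_bot_or_eq_top_of_normal (rad (alt p (n + 1)) G) inferInstance).resolve_left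
      fun e => hw1 (Subtype.ext (mem_bot.mp (e ▸ h5)))
    simpa using (h7.ge (mem_top x)) 1 (by simpa using piNum_one _)
  rcases alt_cases p (n + 1) with e | e <;> rw [e] at h6
  · have : IsPGroup p G := fun x => by
      obtain ⟨k, hk⟩ := (piNum_singleton_iff hp.out (orderOf_pos x).ne').mp (h6 x)
      exact ⟨k, hk ▸ pow_orderOf_eq_one x⟩
    have := this.isNilpotent
    exact hna ⟨⟨IsSimpleGroup.comm_iff_isSolvable.mpr inferInstance⟩⟩
  · obtain ⟨x, hx⟩ := exists_prime_orderOf_dvd_card' p hdvd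
    exact h6 x p hp.out (hx ▸ dvd_rfl) rfl

end H57.Pow
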